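/-
Chains with nilpotent factors built from the bottom, and a criterion for a normal subgroup to lie
in the Fitting subgroup.
-/
import Mathlib
import Cfsg.Agent.Lib.Cores.Fitting
import Cfsg.Agent.Lib.NormalPComplement.Basic
import Cfsg.Agent.Lib.MetacyclicP.FPFMain

set_option autoImplicit false
set_option linter.style.haveILetI false

namespace CfsgLib.HallHigmanExc

open Cfsg CfsgLib.Cores

universe w

variable {G : Type w} [Group G]

/-- A chain of normal subgroups with nilpotent factors of length `m`, as in the statements. -/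
def FChain (G : Type*) [Group G] (m : ℕ) : Prop :=
  ∃ F : Fin (m + 1) → Subgroup G, F 0 = ⊥ ∧ F (Fin.last m) = ⊤ ∧ Monotone F ∧ (∀ i, (F i).Normal) ∧
    ∀ i : Fin m, ∃ k : ℕ, (F i.succ).lowerCentralSeries k ≤ F i.castSucc

/-- A normal nilpotent subgroup lengthens a chain of the quotient by one. -/
theorem FChain.prepend {N : Subgroup G} [N.Normal] (hN : Group.IsNilpotent N) {m : ℕ}
    (h : FChain (G ⧸ N) m) : FChain G (m + 1) := by
  obtain ⟨F, h0, hl, hmono, hnorm, hstep⟩ := h
  let F' : Fin (m + 1 + 1) → Subgroup G :=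
    Fin.cons ⊥ (fun i => (F i).comap (QuotientGroup.mk' N))
  refine ⟨F', rfl, ?_, ?_, ?_, ?_⟩
  · rw [← Fin.succ_last]
    simp only [F', Fin.cons_succ, hl, Subgroup.comap_top]
  · intro i j hij
    cases i using Fin.cases with
    | zero => exact bot_le
    | succ i =>
      cases j using Fin.cases with
      | zero => exact absurd hij (by simp [Fin.le_def])
      | succ j =>
        simp only [F', Fin.cons_succ]
        exact Subgroup.comap_mono (hmono (Fin.succ_le_succ_iff.1 hij))
  · intro i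
    cases i using Fin.cases with
    | zero => exact inferInstanceAs (⊥ : Subgroup G).Normal
    | succ i =>
      simp only [F', Fin.cons_succ]
      exact (hnorm i).comap _
  · intro i
    cases i using Fin.cases with
    | zero =>
      obtain ⟨k, hk⟩ := (Subgroup.isNilpotent_iff_lowerCentralSeries N).1 hN
      refine ⟨k, ?_⟩
      show ((F 0).comap (QuotientGroup.mk' N)).lowerCentralSeries k ≤ ⊥
      rw [h0, MonoidHom.comap_bot, QuotientGroup.ker_mk', hk]
    | succ i =>
      obtain ⟨k, hk⟩ := hstep i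
      refine ⟨k, ?_⟩
      show ((F i.succ).comap (QuotientGroup.mk' N)).lowerCentralSeries k ≤
        (F i.castSucc).comap (QuotientGroup.mk' N)
      rw [← Subgroup.map_le_iff_le_comap, Subgroup.map_lowerCentralSeries]
      exact (Subgroup.lowerCentralSeries_mono k (Subgroup.map_comap_le _ _)).trans hk

/-- An abelian group has a chain of length one. -/
theorem fChain_one_of_isNilpotent (h : Group.IsNilpotent G) : FChain G 1 := by
  obtain ⟨k, hk⟩ := (Subgroup.isNilpotent_iff_lowerCentralSeries (⊤ : Subgroup G)).1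
    (Group.isNilpotent_top.2 h)
  refine ⟨![⊥, ⊤], rfl, rfl, ?_, ?_, ?_⟩
  · intro i j hij
    fin_cases i <;> fin_cases j <;> simp_all
  · intro i
    fin_cases i
    · exact inferInstanceAs (⊥ : Subgroup G).Normal
    · exact inferInstanceAs (⊤ : Subgroup G).Normal
  · intro i
    fin_cases i
    exact ⟨k, hk.le⟩

/-- A fixed-point-free automorphism whose fourth power is trivial gives a chain of length two. -/
theorem fChain_two_of_fpf_four [Finite G] [Group.IsSolvable G] (σ : MulAut G) (hσ : σ ^ 4 = 1)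
    (hfpf : ∀ g : G, σ g = g → g = 1) : FChain G 2 := by
  have hgen : ∀ a : Subgroup.zpowers σ,
      a = 1 ∨ a = ⟨σ, Subgroup.mem_zpowers σ⟩ ∨ a = ⟨σ, Subgroup.mem_zpowers σ⟩ ^ 2 ∨
        a = ⟨σ, Subgroup.mem_zpowers σ⟩ ^ 3 := by
    classical
    rintro ⟨a, ha⟩
    have h4 : orderOf σ ≤ 4 := Nat.le_of_dvd (by norm_num) (orderOf_dvd_of_pow_eq_one hσ)
    obtain ⟨k, hk, rfl⟩ := (mem_zpowers_iff_mem_range_orderOf.1 ha) |> Finset.mem_image.1
    have hk4 : k < 4 := (Finset.mem_range.1 hk).trans_le h4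
    interval_cases k
    · exact Or.inl (Subtype.ext (pow_zero σ))
    · exact Or.inr (Or.inl (Subtype.ext (pow_one σ)))
    · exact Or.inr (Or.inr (Or.inl (Subtype.ext rfl)))
    · exact Or.inr (Or.inr (Or.inr (Subtype.ext rfl)))
  have hnil : Group.IsNilpotent (commutator G) :=
    CfsgLib.MetacyclicP.isNilpotent_commutator_of_fpf_four
      (φ := (Subgroup.zpowers σ).subtype) hgen (Subtype.ext (by simpa using hσ)) hfpf
  exact FChain.prepend hnil
    (fChain_one_of_isNilpotent (G := Abelianization G) CommGroup.isNilpotent)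

/-- A normal subgroup of exponent a `q`-power modulo the Fitting subgroup centralising all `r`-cores,
`r ≠ q`, lies in the Fitting subgroup. -/
theorem le_fitting_of_centralizes [Finite G] {N : Subgroup G} [N.Normal] {q : ℕ} [Fact q.Prime]
    (hpow : ∀ y ∈ N, ∃ k, y ^ q ^ k ∈ fittingSubgroup G)
    (hcent : ∀ r : ℕ, r.Prime → r ≠ q → N ≤ Subgroup.centralizer (pCore r G : Set G)) :
    N ≤ fittingSubgroup G := by
  let R : Set (Subgroup G) := {P | ∃ r, r.Prime ∧ r ≠ q ∧ P = pCore r G}
  let F' : Subgroup G := sSup R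
  haveI : F'.Normal := Subgroup.sSup_normal _ (by rintro P ⟨r, -, -, rfl⟩; infer_instance)
  have hNF : N ≤ Subgroup.centralizer (F' : Set G) := by
    rw [Subgroup.le_centralizer_iff]
    refine sSup_le ?_
    rintro P ⟨r, hr, hrq, rfl⟩
    exact Subgroup.le_centralizer_iff.1 (hcent r hr hrq)
  have hF : fittingSubgroup G ≤ pCore q G ⊔ F' := by
    rw [fittingSubgroup_eq_iSup_pCore]
    refine iSup_le fun p => ?_
    rcases eq_or_ne (p : ℕ) q with h | h
    · exact le_of_eq_of_le (by rw [h]) le_sup_left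
    · exact (le_sSup (s := R) ⟨p, Nat.prime_of_mem_primeFactors p.2, h, rfl⟩).trans le_sup_right
  let f : N →* G ⧸ F' := (QuotientGroup.mk' F').comp N.subtype
  have hfq : IsPGroup q f.range := by
    rintro ⟨_, y, rfl⟩
    obtain ⟨k, hk⟩ := hpow y y.2
    obtain ⟨a, ha, b, hb, hab⟩ := Subgroup.mem_sup_of_normal_left.1 (hF hk)
    obtain ⟨j, hj⟩ := isPGroup_pCore q G ⟨a, ha⟩
    refine ⟨k + j, Subtype.ext ?_⟩
    show ((y : G) : G ⧸ F') ^ q ^ (k + j) = 1
    rw [pow_add, pow_mul, ← QuotientGroup.mk_pow, ← hab, QuotientGroup.mk_mul,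
      (QuotientGroup.eq_one_iff b).2 hb, mul_one, ← QuotientGroup.mk_pow,
      show a ^ q ^ j = 1 from congrArg Subtype.val hj]
    rfl
  have hker : f.rangeRestrict.ker ≤ Subgroup.center N := by
    rw [MonoidHom.ker_rangeRestrict]
    intro z hz
    have hzF : (z : G) ∈ F' := (QuotientGroup.eq_one_iff _).1 hz
    exact Subgroup.mem_center_iff.2 fun y =>
      Subtype.ext (Subgroup.mem_centralizer_iff.1 (hNF y.2) _ hzF).symm
  haveI := hfq.isNilpotent
  exact le_fittingSubgroup (Subgroup.isNilpotent_of_ker_le_center _ hker)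

/-- The `q`-part of an element of a normal subgroup lies in the Fitting subgroup as soon as it
centralises every `r`-core, `r ≠ q`; the other part always does. -/
theorem mem_fitting_of_qParts [Finite G] {N : Subgroup G} [N.Normal] {q : ℕ} [Fact q.Prime]
    (hpow : ∀ y ∈ N, ∃ k, y ^ q ^ k ∈ fittingSubgroup G) {y : G} (hy : y ∈ N)
    (hcent : ∀ a : ℕ, (∃ j, (y ^ a) ^ q ^ j = 1) → ∀ r : ℕ, r.Prime → r ≠ q →
      y ^ a ∈ Subgroup.centralizer (pCore r G : Set G)) :
    y ∈ fittingSubgroup G := by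
  obtain ⟨a, b, hab, ⟨j, hj⟩, hb⟩ :=
    CfsgLib.NormalPComplement.exists_pParts (p := q) (isOfFinOrder_of_finite y)
  rw [← hab]
  refine mul_mem ?_ ?_
  · let C : Subgroup G :=
      ⨅ r : {r : ℕ // r.Prime ∧ r ≠ q}, Subgroup.centralizer (pCore (r : ℕ) G : Set G)
    haveI : (N ⊓ C).Normal := by
      haveI : C.Normal := Subgroup.normal_iInf_normal fun r => Subgroup.normal_centralizer
      infer_instance
    have hcent' : ∀ r : ℕ, r.Prime → r ≠ q →
        N ⊓ C ≤ Subgroup.centralizer (pCore r G : Set G) := fun r hr hrq =>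
      (inf_le_right : N ⊓ C ≤ C).trans
        (iInf_le (fun s : {r : ℕ // r.Prime ∧ r ≠ q} =>
          Subgroup.centralizer (pCore (s : ℕ) G : Set G)) ⟨r, hr, hrq⟩)
    refine le_fitting_of_centralizes (q := q) (N := N ⊓ C) (fun z hz => hpow z hz.1) hcent'
      (Subgroup.mem_inf.2 ⟨pow_mem hy a, ?_⟩)
    simp only [C, Subgroup.mem_iInf]
    exact fun r => hcent a ⟨j, orderOf_dvd_iff_pow_eq_one.1 hj⟩ r r.2.1 r.2.2
  · obtain ⟨k, hk⟩ := hpow _ (pow_mem hy b)
    obtain ⟨m, hm⟩ := exists_pow_eq_self_of_coprime (n := q ^ k) (x := y ^ b) (hb.pow_right k).symm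
    rw [← hm]
    exact pow_mem hk m

end CfsgLib.HallHigmanExc
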