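/-
The module of a finite group on the Frattini quotient of a normal `p`-subgroup, and the relation
satisfied by an element acting fixed-point-freely on that subgroup.
-/
import Mathlib
import Cfsg.Agent.Lib.HallHigmanExc.Module

set_option autoImplicit false
set_option linter.style.haveILetI false
set_option linter.unusedSectionVars false

open scoped commutatorElement

namespace CfsgLib.HallHigmanExc

open Cfsg

universe w

/-- The module on the Frattini quotient of a normal `r`-subgroup: its kernel, and the relation of a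
fixed-point-free element. -/
theorem exists_module_fpf {Γ : Type w} [Group Γ] [Finite Γ] {r : ℕ} [Fact r.Prime] (P : Subgroup Γ)
    [P.Normal] (hP : IsPGroup r P) :
    ∃ (d : ℕ) (ρ : Γ →* Module.End (AlgebraicClosure (ZMod r)) (Fin d → AlgebraicClosure (ZMod r))),
      (∀ g : Γ, ρ g = 1 ↔ ∀ x ∈ P, x⁻¹ * (g * x * g⁻¹) ∈ (frattini P).map P.subtype) ∧
      ∀ (s : Γ) (m : ℕ), s ^ m = 1 → (∀ x ∈ P, s * x * s⁻¹ = x → x = 1) →
        ∑ i ∈ Finset.range m, ρ s ^ i = 0 := by
  classical
  set Φ := frattini P with hΦ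
  haveI hΦn : Φ.Normal := inferInstance
  have hcomm : ∀ a b : P ⧸ Φ, a * b = b * a := fun a b => by
      induction a using QuotientGroup.induction_on with | _ a =>
      induction b using QuotientGroup.induction_on with | _ b =>
      rw [← QuotientGroup.mk_mul, ← QuotientGroup.mk_mul, QuotientGroup.eq]
      have hc := CfsgLib.PGroups.commutator_le_frattini hP
        (Subgroup.commutator_mem_commutator (Subgroup.mem_top b⁻¹) (Subgroup.mem_top a⁻¹))
      simpa [commutatorElement_def, mul_assoc] using hc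
  letI : CommGroup (P ⧸ Φ) := { (inferInstance : Group (P ⧸ Φ)) with mul_comm := hcomm }
  have hexpA : ∀ a : Additive (P ⧸ Φ), r • a = 0 := fun a => by
    obtain ⟨x, hx⟩ := QuotientGroup.mk_surjective (Additive.toMul a)
    show Additive.ofMul ((Additive.toMul a) ^ r) = 0
    rw [← hx, ← QuotientGroup.mk_pow,
      (QuotientGroup.eq_one_iff _).2 (CfsgLib.PGroups.pow_mem_frattini hP x)]
    rfl
  obtain ⟨d, co, N, hco, hN, hcoN, hspan⟩ := exists_coordinates (p := r) hexpA
  let q : P → Additive (P ⧸ Φ) := fun x => Additive.ofMul (x : P ⧸ Φ)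
  let R : P → (Fin d → AlgebraicClosure (ZMod r)) := fun x => co (q x)
  have hR : ∀ x y, R (x * y) = R x + R y := fun x y => map_add co (q x) (q y)
  have hR1 : R 1 = 0 := map_zero co
  have hR0 : ∀ x, R x = 0 ↔ x ∈ Φ := fun x => by
    rw [show R x = co (q x) from rfl, map_eq_zero_iff co hco]
    exact QuotientGroup.eq_one_iff x
  let φ : Γ → MulAut P := fun g => MulAut.conjNormal g
  have hΦi : ∀ (g : Γ), Φ ≤ Φ.comap (φ g).toMonoidHom := fun g x hx =>
    (Subgroup.characteristic_iff_map_le.1 (inferInstance : Φ.Characteristic) (φ g)) ⟨x, hx, rfl⟩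
  let act : Γ → AddMonoid.End (Additive (P ⧸ Φ)) := fun g =>
    MonoidHom.toAdditive (QuotientGroup.map Φ Φ (φ g).toMonoidHom (hΦi g))
  have hact : ∀ g x, act g (q x) = q (φ g x) := fun g x => rfl
  have hqs : Function.Surjective q := fun a => by
    obtain ⟨x, hx⟩ := QuotientGroup.mk_surjective (Additive.toMul a)
    exact ⟨x, congrArg Additive.ofMul hx⟩
  let ψ : Γ →* AddMonoid.End (Additive (P ⧸ Φ)) :=
    { toFun := act
      map_one' := AddMonoidHom.ext fun a => by
        obtain ⟨x, rfl⟩ := hqs a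
        refine (hact 1 x).trans ?_
        show q ((MulAut.conjNormal (1 : Γ) : MulAut P) x) = _
        rw [map_one]; rfl
      map_mul' := fun g h => AddMonoidHom.ext fun a => by
        obtain ⟨x, rfl⟩ := hqs a
        refine (hact (g * h) x).trans ?_
        show q ((MulAut.conjNormal (g * h) : MulAut P) x) = act g (act h (q x))
        rw [map_mul, hact, hact]; rfl }
  let ρ : Γ →* Module.End (AlgebraicClosure (ZMod r)) (Fin d → AlgebraicClosure (ZMod r)) :=
    N.comp ψ
  have hρ : ∀ g x, ρ g (R x) = R (φ g x) := fun g x => by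
    show N (ψ g) (co (q x)) = _
    rw [← hcoN]
    rfl
  refine ⟨d, ρ, fun g => ?_, fun s m hsm hfix => ?_⟩
  · have e1 : ∀ x : P, R (φ g x) = R x ↔ x⁻¹ * φ g x ∈ Φ := fun x => by
      show co (q (φ g x)) = co (q x) ↔ _
      rw [hco.eq_iff, ← QuotientGroup.eq]
      exact ⟨fun h => h.symm, fun h => h.symm⟩
    have e2 : ∀ x : P, ((x⁻¹ * φ g x : P) : Γ) = (x : Γ)⁻¹ * (g * x * g⁻¹) := fun x => by
      rw [Subgroup.coe_mul, Subgroup.coe_inv, MulAut.conjNormal_apply]
    constructor
    · intro hg x hx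
      refine ⟨_, (e1 ⟨x, hx⟩).1 ?_, e2 ⟨x, hx⟩⟩
      rw [← hρ, hg]
      rfl
    · intro hg
      refine LinearMap.ext_on hspan ?_
      rintro _ ⟨a, rfl⟩
      obtain ⟨x, rfl⟩ := hqs a
      show ρ g (R x) = R x
      rw [hρ, e1]
      obtain ⟨z, hz, hzx⟩ := hg x x.2
      rwa [show x⁻¹ * φ g x = z from Subtype.ext ((e2 x).trans hzx.symm)]
  · refine LinearMap.ext_on hspan ?_
    rintro _ ⟨a, rfl⟩
    obtain ⟨x, rfl⟩ := hqs a
    rw [LinearMap.sum_apply, LinearMap.zero_apply]
    show ∑ i ∈ Finset.range m, (ρ s ^ i) (R x) = 0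
    obtain ⟨y, hy⟩ : ∃ y : P, R y = ∑ i ∈ Finset.range m, (ρ s ^ i) (R x) := by
      suffices ∀ j, ∃ y : P, R y = ∑ i ∈ Finset.range j, (ρ s ^ i) (R x) from this m
      intro j
      induction j with
      | zero => exact ⟨1, by simp [hR1]⟩
      | succ j ih =>
        obtain ⟨y, hy⟩ := ih
        exact ⟨y * φ (s ^ j) x, by rw [hR, hy, Finset.sum_range_succ, ← hρ, map_pow]⟩
    rw [← hy]
    have hfixy : ρ s (R y) = R y := by
      have hm : (ρ s ^ m) (R x) = (ρ s ^ 0) (R x) := by rw [← map_pow, hsm, map_one, pow_zero]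
      have h1 : ρ s (R y) = ∑ i ∈ Finset.range m, (ρ s ^ (i + 1)) (R x) := by
        rw [hy, map_sum]
        exact Finset.sum_congr rfl fun i _ => by rw [pow_succ', Module.End.mul_apply]
      have h2 := (Finset.sum_range_succ (fun i => (ρ s ^ i) (R x)) m).symm.trans
        (Finset.sum_range_succ' (fun i => (ρ s ^ i) (R x)) m)
      rw [hm] at h2
      rw [h1, hy]
      exact (add_right_cancel h2).symm
    have hyΦ : y⁻¹ * φ s y ∈ Φ := by
      rw [← hR0, hR, ← hρ s y, hfixy, ← hR, inv_mul_cancel, hR1]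
    let D : Φ → Φ := fun z => ⟨(z : P)⁻¹ * φ s z, mul_mem (inv_mem z.2) (hΦi s z.2)⟩
    have hinj : ∀ a b : P, a⁻¹ * φ s a = b⁻¹ * φ s b → a = b := by
      intro a b h
      have h1 : φ s (a * b⁻¹) = a * b⁻¹ := by
        rw [map_mul, map_inv, show φ s a = a * (b⁻¹ * φ s b) by rw [← h, mul_inv_cancel_left]]
        group
      have h2 : a * b⁻¹ = 1 := Subtype.ext (hfix _ (a * b⁻¹).2 (by
        rw [← MulAut.conjNormal_apply]
        exact congrArg Subtype.val h1))
      exact mul_inv_eq_one.1 h2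
    have hDi : Function.Injective D := fun a b h =>
      Subtype.ext (hinj a b (congrArg Subtype.val h))
    obtain ⟨z, hz⟩ := (Finite.injective_iff_surjective.1 hDi) ⟨_, hyΦ⟩
    rw [hR0]
    have : (z : P) = y := hinj _ _ (congrArg Subtype.val hz)
    exact this ▸ z.2

end CfsgLib.HallHigmanExc
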