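/-
Gross's bound on the Fitting height of a solvable group with a fixed-point-free automorphism of
two-power order.
-/
import Mathlib
import Cfsg.Agent.Lib.FixedPointFree.Basic
import Cfsg.Agent.Lib.CoprimeAction.Aut
import Cfsg.Agent.Lib.HallHigmanExc.GrossChain
import Cfsg.Agent.Lib.HallHigmanExc.GrossModule
import Cfsg.Agent.Lib.HallHigmanExc.GrossConfig

set_option autoImplicit false
set_option linter.style.haveILetI false
set_option linter.unusedSectionVars false

open scoped commutatorElement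

namespace CfsgLib.HallHigmanExc

open Cfsg CfsgLib.Cores CfsgLib.FixedPointFree

universe w

theorem mulAut_pow_apply {G : Type w} [Group G] (σ : MulAut G) (k : ℕ) (x : G) :
    (σ ^ k) x = σ^[k] x := by
  induction k with
  | zero => rfl
  | succ k ih =>
    rw [pow_succ', Function.iterate_succ_apply', ← ih]
    rfl

/-- A group with a fixed-point-free automorphism of two-power order has odd order. -/
theorem odd_card_of_fpf_two_power {G : Type w} [Group G] [Finite G] {σ : G ≃* G} {m : ℕ}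
    (h : IsFPF σ (2 ^ m)) : Odd (Nat.card G) := by
  classical
  haveI := Fintype.ofFinite G
  let f : Function.End G := fun x => σ x
  have hiter : ∀ k : ℕ, f ^ k = (σ^[k] : G → G) := by
    intro k
    induction k with
    | zero => rfl
    | succ k ih =>
      rw [pow_succ', ih, Function.iterate_succ']
      rfl
  have hf : f ^ 2 ^ m = 1 := (hiter _).trans (funext h.2)
  have key := Equiv.Perm.card_fixedPoints_modEq hf
  have h1 : Fintype.card (Function.fixedPoints f) = 1 :=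
    Fintype.card_eq_one_iff.2 ⟨⟨1, show σ 1 = 1 from map_one σ⟩, fun y => Subtype.ext (h.1 _ y.2)⟩
  rw [h1, ← Nat.card_eq_fintype_card] at key
  exact Nat.odd_iff.2 key

theorem prime_ne_two_of_dvd_card {G : Type w} [Group G] {p : ℕ}
    (hodd : Odd (Nat.card G)) {H : Subgroup G} (hH : IsPGroup p H) [Finite G] [Fact p.Prime]
    (hne : H ≠ ⊥) : p ≠ 2 := by
  rintro rfl
  obtain ⟨k, hk⟩ := IsPGroup.iff_card.1 hH
  rcases k with _ | k
  · exact hne (Subgroup.eq_bot_of_card_eq _ (by simpa using hk))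
  · have h2 : 2 ∣ Nat.card G :=
      (Dvd.intro_left (2 ^ k) (pow_succ 2 k).symm).trans (hk ▸ Subgroup.card_subgroup_dvd_card H)
    exact (Nat.not_even_iff_odd.2 hodd) (even_iff_two_dvd.2 h2)

/-- An involutory automorphism of a solvable group of odd order that is not the identity moves an
element of some `O_s`. -/
theorem exists_core_moved {X : Type w} [Group X] [Finite X] [Group.IsSolvable X]
    (hodd : Odd (Nat.card X)) {τ : MulAut X} (hτ : ∀ x, τ (τ x) = x) (hne : ∃ x, τ x ≠ x) :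
    ∃ s : ℕ, s.Prime ∧ ∃ x ∈ pCore s X, τ x ≠ x := by
  by_contra hcon
  push Not at hcon
  have hF : ∀ y ∈ fittingSubgroup X, τ y = y := by
    have hle : fittingSubgroup X ≤ τ.toMonoidHom.eqLocus (MonoidHom.id X) := by
      rw [fittingSubgroup_eq_iSup_pCore]
      exact iSup_le fun p y hy => hcon p (Nat.prime_of_mem_primeFactors p.2) y hy
    exact fun y hy => hle hy
  obtain ⟨x, hx⟩ := hne
  have hu : x⁻¹ * τ x ∈ Subgroup.centralizer (fittingSubgroup X : Set X) := by
    refine Subgroup.mem_centralizer_iff.2 fun y hy => ?_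
    have h1 := hF _ ((inferInstance : (fittingSubgroup X).Normal).conj_mem y hy x)
    rw [map_mul, map_mul, map_inv, hF y hy] at h1
    calc y * (x⁻¹ * τ x) = x⁻¹ * (x * y * x⁻¹) * τ x := by group
      _ = x⁻¹ * (τ x * y * (τ x)⁻¹) * τ x := by rw [h1]
      _ = x⁻¹ * τ x * y := by group
  have h2 := hF _ (centralizer_fittingSubgroup_le hu)
  rw [map_mul, map_inv, hτ] at h2
  have h3 : (x⁻¹ * τ x) ^ 2 = 1 := by
    rw [pow_two]
    nth_rw 1 [← h2]
    group
  have h4 : orderOf (x⁻¹ * τ x) = 1 :=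
    Nat.eq_one_of_dvd_coprimes (Nat.coprime_two_left.2 hodd) (orderOf_dvd_of_pow_eq_one h3)
      (orderOf_dvd_natCard _)
  exact hx (inv_mul_eq_one.1 (orderOf_eq_one_iff.1 h4)).symm

variable {G : Type w} [Group G] [Finite G]

/-- The heart of the argument: the `q`-part of a commutator with a moved `s`-element centralises
every `r`-core, `r ≠ q`. -/
theorem kills_commutator (σ : MulAut G) {n : ℕ} (hσ : σ ^ 2 ^ (n + 1) = 1)
    (hfpf : ∀ g : G, σ g = g → g = 1) {q s : ℕ} [Fact q.Prime] [Fact s.Prime] (hq2 : q ≠ 2)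
    (hs2 : s ≠ 2) (hsq : s ≠ q) {T : Subgroup G} (hT : IsPGroup s T) (hTi : Invariant σ T)
    {Y : Subgroup G} [Y.Normal] (hYi : Invariant σ Y)
    (hpow : ∀ y ∈ Y, ∃ k, y ^ q ^ k ∈ fittingSubgroup G) {x : G} (hx : x ∈ T) {h : G} (hh : h ∈ Y)
    {r : ℕ} [Fact r.Prime] (hrq : r ≠ q) {a j : ℕ}
    (ha : (⁅h, x⁻¹ * (σ ^ 2 ^ n) x⁆ ^ a) ^ q ^ j = 1) :
    ⁅h, x⁻¹ * (σ ^ 2 ^ n) x⁆ ^ a ∈ Subgroup.centralizer (pCore r G : Set G) := by
  classical
  set A : Subgroup (MulAut G) := Subgroup.zpowers σ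
  set φ : A →* MulAut G := A.subtype
  haveI : Finite (G ⋊[φ] A) := CfsgLib.CoprimeAction.finite_semidirect φ
  set ι : G →* G ⋊[φ] A := SemidirectProduct.inl
  have hconj : ∀ (b : A) (g : G), SemidirectProduct.inr b * ι g * (SemidirectProduct.inr b)⁻¹ =
      ι ((b : MulAut G) g) := fun b g => by
    rw [← map_inv]
    exact (SemidirectProduct.inl_aut b g).symm
  set s0 : G ⋊[φ] A := SemidirectProduct.inr ⟨σ, Subgroup.mem_zpowers σ⟩ with hs0
  set t0 : G ⋊[φ] A := s0 ^ 2 ^ n with ht0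
  have hs0g : ∀ g, s0 * ι g * s0⁻¹ = ι (σ g) := fun g => hconj _ g
  have ht0g : ∀ g, t0 * ι g * t0⁻¹ = ι ((σ ^ 2 ^ n) g) := fun g => by
    rw [ht0, hs0, ← map_pow]
    exact hconj _ g
  have hs0m : s0 ^ 2 ^ (n + 1) = 1 := by
    rw [hs0, ← map_pow,
      show (⟨σ, Subgroup.mem_zpowers σ⟩ : A) ^ 2 ^ (n + 1) = 1 from Subtype.ext hσ, map_one]
  -- the normal `r`-subgroup and its module
  set P : Subgroup (G ⋊[φ] A) := (pCore r G).map ι
  haveI hPn : P.Normal := ⟨fun p hp γ => by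
    obtain ⟨v, hv, rfl⟩ := hp
    refine ⟨γ.left * ((γ.right : MulAut G) v) * γ.left⁻¹,
      (inferInstance : (pCore r G).Normal).conj_mem _
        (invariant_of_characteristic (γ.right : MulAut G) (pCore r G) v hv) _, ?_⟩
    have e : γ = ι γ.left * SemidirectProduct.inr γ.right :=
      (SemidirectProduct.inl_left_mul_inr_right γ).symm
    rw [map_mul, map_mul, map_inv, ← hconj]
    conv_rhs => rw [e]
    group⟩
  have hPp : IsPGroup r P := (isPGroup_pCore r G).map ι
  obtain ⟨d, ρ, hker, hrel⟩ := exists_module_fpf P hPp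
  have hsum : ∑ i ∈ Finset.range (2 ^ (n + 1)), ρ s0 ^ i = 0 := by
    refine hrel s0 _ hs0m ?_
    rintro _ ⟨v, -, rfl⟩ hv
    rw [hs0g] at hv
    rw [hfpf v (SemidirectProduct.inl_injective hv), map_one]
  have hF : ∀ z ∈ fittingSubgroup G, ρ (ι z) = 1 := by
    have hle : fittingSubgroup G ≤ (ρ.comp ι).ker := by
      rw [fittingSubgroup_eq_iSup_pCore]
      refine iSup_le fun p z hz => ?_
      rw [MonoidHom.mem_ker, MonoidHom.comp_apply, hker]
      rintro _ ⟨v, hv, rfl⟩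
      haveI : Fact (p : ℕ).Prime := ⟨Nat.prime_of_mem_primeFactors p.2⟩
      rcases eq_or_ne (p : ℕ) r with hp | hp
      · have hzP : ι z ∈ P := ⟨z, hp ▸ hz, rfl⟩
        refine ⟨⁅(⟨ι v, ⟨v, hv, rfl⟩⟩ : P)⁻¹, (⟨ι z, hzP⟩ : P)⁆,
          CfsgLib.PGroups.commutator_le_frattini hPp
            (Subgroup.commutator_mem_commutator (Subgroup.mem_top _) (Subgroup.mem_top _)), ?_⟩
        simp [commutatorElement_def, mul_assoc]
      · have hc : z * v = v * z := commute_pCore_of_ne hp hz hv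
        rw [← map_inv, ← map_inv, ← map_mul, ← map_mul, ← map_mul]
        rw [hc, mul_inv_cancel_right, inv_mul_cancel, map_one]
        exact one_mem _
    exact fun z hz => hle hz
  -- the faithful linear group
  set H : Subgroup (Module.End (AlgebraicClosure (ZMod r))
    (Fin d → AlgebraicClosure (ZMod r)))ˣ := ρ.toHomUnits.range
  set f : G ⋊[φ] A →* H := ρ.toHomUnits.rangeRestrict
  haveI : Finite H := Finite.of_surjective f ρ.toHomUnits.rangeRestrict_surjective
  set ρ' : H →* Module.End (AlgebraicClosure (ZMod r)) (Fin d → AlgebraicClosure (ZMod r)) :=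
    (Units.coeHom _).comp H.subtype
  have hρ'f : ∀ γ, ρ' (f γ) = ρ γ := fun γ => rfl
  have hρ'inj : Function.Injective ρ' := fun u v huv => Subtype.ext (Units.ext huv)
  set Q := (Y.map ι).map f
  have hQ : IsPGroup q Q := by
    rintro ⟨_, _, ⟨y, hy, rfl⟩, rfl⟩
    obtain ⟨k, hk⟩ := hpow y hy
    refine ⟨k, Subtype.ext (hρ'inj ?_)⟩
    show ρ' (f (ι y) ^ q ^ k) = ρ' 1
    rw [← map_pow, ← map_pow, hρ'f, map_one, hF _ hk]
  set T' := T.map ι
  have hsT : s0 ∈ Subgroup.normalizer (T' : Set (G ⋊[φ] A)) :=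
    CoprimeAction.mem_normalizer_of_conj_mem (by
      rintro _ ⟨v, hv, rfl⟩
      exact ⟨σ v, hTi v hv, (hs0g v).symm⟩)
  have hsY : s0 ∈ Subgroup.normalizer ((Y.map ι : Subgroup (G ⋊[φ] A)) : Set (G ⋊[φ] A)) :=
    CoprimeAction.mem_normalizer_of_conj_mem (by
      rintro _ ⟨v, hv, rfl⟩
      exact ⟨σ v, hYi v hv, (hs0g v).symm⟩)
  set S := ⁅T', Subgroup.zpowers t0⁆
  have htT : Subgroup.zpowers t0 ≤ Subgroup.normalizer (T' : Set (G ⋊[φ] A)) :=
    Subgroup.zpowers_le.2 (pow_mem hsT _)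
  have hST : S ≤ T' := CoprimeAction.commutator_le_left htT
  have hsS : s0 ∈ Subgroup.normalizer (S : Set (G ⋊[φ] A)) :=
    CoprimeAction.mem_normalizer_of_conj_mem fun z hz => by
      have h1 : (MulAut.conj s0).toMonoidHom z ∈ S.map (MulAut.conj s0).toMonoidHom := ⟨z, hz, rfl⟩
      rw [Subgroup.map_commutator, MonoidHom.map_zpowers] at h1
      have e : (MulAut.conj s0).toMonoidHom t0 = t0 := by
        show s0 * t0 * s0⁻¹ = t0
        rw [ht0, (Commute.self_pow s0 _).eq, mul_inv_cancel_right]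
      rw [e] at h1
      refine (Subgroup.commutator_mono ?_ le_rfl) h1
      rintro _ ⟨w, hw, rfl⟩
      exact CoprimeAction.conj_mem hsT hw
  have hgen : S ≤ ⁅S, Subgroup.zpowers t0⁆ := by
    obtain ⟨k, hk⟩ := IsPGroup.iff_card.1 (hT.map ι)
    refine (CoprimeAction.commutator_commutator_eq htT ?_
      (Or.inl (CoprimeAction.isSolvable_zpowers t0))).ge
    rw [Nat.card_zpowers, hk]
    refine Nat.Coprime.pow_right k (Nat.Coprime.coprime_dvd_left
      (orderOf_dvd_of_pow_eq_one (n := 2) ?_) ((Nat.coprime_primes Nat.prime_two Fact.out).2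
        (Ne.symm hs2)))
    rw [ht0, ← pow_mul, ← pow_succ, hs0m]
  have hqK : (q : AlgebraicClosure (ZMod r)) ≠ 0 := by
    haveI : CharP (AlgebraicClosure (ZMod r)) r := charP_of_injective_algebraMap'
      (ZMod r) r
    rw [Ne, CharP.cast_eq_zero_iff _ r]
    exact fun hd => hrq ((Nat.prime_dvd_prime_iff_eq Fact.out Fact.out).1 hd)
  have hcent := le_centralizer_of_involution (n := n) hρ'inj hq2 hs2 hsq hqK hQ
    (((hT.map ι).to_le hST).map f) (σ := f s0)
    (Subgroup.le_normalizer_map f ⟨s0, hsY, rfl⟩) (Subgroup.le_normalizer_map f ⟨s0, hsS, rfl⟩)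
    ((Subgroup.map_mono (hST.trans (by
      rintro _ ⟨v, hv, rfl⟩
      refine CoprimeAction.mem_normalizer_of_conj_mem ?_
      rintro _ ⟨w, hw, rfl⟩
      exact ⟨v * w * v⁻¹, (inferInstance : Y.Normal).conj_mem w hw v, by
        rw [map_mul, map_mul, map_inv]⟩))).trans (Subgroup.le_normalizer_map f))
    (by rw [← map_pow, hs0m, map_one]) hsum
    (by rw [← map_pow, ← MonoidHom.map_zpowers, ← Subgroup.map_commutator]
        exact Subgroup.map_mono hgen)
  set u := x⁻¹ * (σ ^ 2 ^ n) x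
  have hu : ι u ∈ S := by
    have e : ⁅(ι x)⁻¹, t0⁆ = ι u := by
      rw [commutatorElement_def, inv_inv]
      show _ = ι (x⁻¹ * (σ ^ 2 ^ n) x)
      rw [map_mul, ← ht0g, map_inv]
      group
    rw [← e]
    exact Subgroup.commutator_mem_commutator (inv_mem ⟨x, hx, rfl⟩) (Subgroup.mem_zpowers t0)
  have hcomm : f (ι h) * f (ι u) = f (ι u) * f (ι h) :=
    Subgroup.mem_centralizer_iff.1 (hcent ⟨ι u, hu, rfl⟩) _ ⟨ι h, ⟨h, hh, rfl⟩, rfl⟩
  have hc : ρ (ι ⁅h, u⁆) = 1 := by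
    have h1 : f (ι ⁅h, u⁆) = 1 := by
      rw [map_commutatorElement, map_commutatorElement, commutatorElement_eq_one_iff_mul_comm]
      exact hcomm
    rw [← hρ'f, h1, map_one]
  -- back to `G`
  set z := ⁅h, u⁆ ^ a
  have hz : ρ (ι z) = 1 := by rw [map_pow, map_pow, hc, one_pow]
  have hzc : Subgroup.zpowers (ι z) ≤ Subgroup.centralizer (P : Set (G ⋊[φ] A)) := by
    refine CoprimeAction.le_centralizer_of_frattini ?_ ?_ ?_
    · rw [Subgroup.normalizer_eq_top_iff.2 hPn]; exact le_top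
    · obtain ⟨m, hm⟩ := IsPGroup.iff_card.1 (hPp.to_subgroup (frattini P))
      rw [Nat.card_zpowers, hm]
      refine Nat.Coprime.pow_right m (Nat.Coprime.coprime_dvd_left
        (orderOf_dvd_of_pow_eq_one (n := q ^ j) (by rw [← map_pow, ha, map_one])) ?_)
      exact Nat.Coprime.pow_left _ ((Nat.coprime_primes Fact.out Fact.out).2 hrq.symm)
    · intro b hb v hv
      obtain ⟨i, rfl⟩ := Subgroup.mem_zpowers_iff.1 hb
      exact (hker _).1 (MonoidHom.mem_ker.1 (Subgroup.zpow_mem ρ.ker (MonoidHom.mem_ker.2 hz) i)) v hv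
  refine Subgroup.mem_centralizer_iff.2 fun v hv => SemidirectProduct.inl_injective (φ := φ) ?_
  rw [map_mul, map_mul]
  exact Subgroup.mem_centralizer_iff.1 (hzc (Subgroup.mem_zpowers _)) _ ⟨v, hv, rfl⟩

/-- The involutory power of the automorphism is trivial modulo the second Fitting subgroup. -/
theorem gross_step [Group.IsSolvable G] (σ : MulAut G) (n : ℕ) (hσ : σ ^ 2 ^ (n + 1) = 1)
    (hfpf : ∀ g : G, σ g = g → g = 1) (x : G) :
    ((x⁻¹ * (σ ^ 2 ^ n) x : G) : G ⧸ fittingSubgroup G) ∈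
      fittingSubgroup (G ⧸ fittingSubgroup G) := by
  classical
  have hF : IsFPF (σ : G ≃* G) (2 ^ (n + 1)) :=
    ⟨hfpf, fun g => by rw [← mulAut_pow_apply, hσ]; rfl⟩
  have hodd : Odd (Nat.card G) := odd_card_of_fpf_two_power hF
  set F1 := fittingSubgroup G
  have hF1 : ∀ e : G ≃* G, Invariant e F1 := fun e => invariant_of_characteristic e F1
  set F2 : Subgroup G := (fittingSubgroup (G ⧸ F1)).comap (QuotientGroup.mk' F1) with hF2
  have hF2i : ∀ e : G ≃* G, Invariant e F2 := fun e y hy =>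
    invariant_of_characteristic (quot e (hF1 e)) (fittingSubgroup (G ⧸ F1)) _ hy
  show x⁻¹ * (σ ^ 2 ^ n) x ∈ F2
  by_contra hx
  have hoddX : Odd (Nat.card (G ⧸ F2)) :=
    hodd.of_dvd_nat (Subgroup.card_quotient_dvd_card F2)
  haveI : Group.IsSolvable (G ⧸ F2) :=
    Group.isSolvable_of_surjective (QuotientGroup.mk'_surjective F2)
  set τ : MulAut (G ⧸ F2) := quot (σ ^ 2 ^ n) (hF2i _) with hτdef
  have hττ : ∀ y, τ (τ y) = y := fun y => by
    induction y using QuotientGroup.induction_on with | _ z => ?_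
    rw [hτdef, quot_mk, quot_mk, ← MulAut.mul_apply, ← pow_add, ← two_mul, ← pow_succ', hσ]
    rfl
  obtain ⟨s, hs, xb, hxb, hmov⟩ := exists_core_moved hoddX hττ
    ⟨(x : G ⧸ F2), fun h => hx (QuotientGroup.eq.1 h.symm)⟩
  haveI : Fact s.Prime := ⟨hs⟩
  have hs2 : s ≠ 2 := prime_ne_two_of_dvd_card hoddX (isPGroup_pCore s (G ⧸ F2)) fun h => hmov (by
    rw [h, Subgroup.mem_bot] at hxb
    rw [hxb, map_one])
  -- an invariant Sylow subgroup above `O_s`
  set Y0 : Subgroup G := (pCore s (G ⧸ F2)).comap (QuotientGroup.mk' F2)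
  have hY0i : ∀ e : G ≃* G, Invariant e Y0 := fun e y hy =>
    invariant_of_characteristic (quot e (hF2i e)) (pCore s (G ⧸ F2)) _ hy
  obtain ⟨S0, hS0⟩ := exists_invariant_sylow (isFPF_restr hF (hY0i σ)) s
  let π : Y0 →* pCore s (G ⧸ F2) :=
    ((QuotientGroup.mk' F2).comp Y0.subtype).codRestrict _ fun y => y.2
  have hπ : Function.Surjective π := fun z => by
    obtain ⟨g, hg⟩ := QuotientGroup.mk'_surjective F2 (z : G ⧸ F2)
    exact ⟨⟨g, show QuotientGroup.mk' F2 g ∈ _ from hg ▸ z.2⟩, Subtype.ext hg⟩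
  have htop : (⊤ : Subgroup (pCore s (G ⧸ F2))) = (S0 : Subgroup Y0).map π := by
    rw [← Sylow.coe_mapSurjective hπ]
    exact (Sylow.mapSurjective hπ S0).3 ((isPGroup_pCore s (G ⧸ F2)).to_subgroup ⊤) le_top
  obtain ⟨p, hp, hpx⟩ := htop.le (Subgroup.mem_top ⟨xb, hxb⟩)
  have hpxb : ((p : G) : G ⧸ F2) = xb := congrArg Subtype.val hpx
  set T : Subgroup G := (S0 : Subgroup Y0).map Y0.subtype
  have hT : IsPGroup s T := S0.2.map _
  have hTi : Invariant (σ : G ≃* G) T := by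
    rintro _ ⟨z, hz, rfl⟩
    exact ⟨restr σ (hY0i σ) z, hS0 z hz, rfl⟩
  set u := (p : G)⁻¹ * (σ ^ 2 ^ n) (p : G) with hu
  have huF2 : u ∉ F2 := fun h => hmov (by
    rw [← hpxb, hτdef, quot_mk]
    exact (QuotientGroup.eq.2 h).symm)
  have huY0 : u ∈ Y0 := mul_mem (inv_mem p.2) (hY0i _ _ p.2)
  -- a prime `q ≠ s` whose core modulo the Fitting subgroup is moved by `u`
  obtain ⟨q, hq, hqs, hb, hhb, hne⟩ : ∃ q : ℕ, q.Prime ∧ q ≠ s ∧
      ∃ hb ∈ pCore q (G ⧸ F1), hb * (u : G ⧸ F1) ≠ (u : G ⧸ F1) * hb := by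
    by_contra hcon
    push Not at hcon
    haveI : (Y0.map (QuotientGroup.mk' F1)).Normal :=
      Subgroup.Normal.map inferInstance _ (QuotientGroup.mk'_surjective F1)
    refine huF2 (mem_fitting_of_qParts (q := s) (N := Y0.map (QuotientGroup.mk' F1)) ?_
      (y := (u : G ⧸ F1)) ⟨u, huY0, rfl⟩ fun a _ r hr hrs => ?_)
    · rintro _ ⟨y, hy, rfl⟩
      obtain ⟨k, hk⟩ := isPGroup_pCore s (G ⧸ F2) ⟨(y : G ⧸ F2), hy⟩
      refine ⟨k, ?_⟩
      have h1 : y ^ s ^ k ∈ F2 :=
        (QuotientGroup.eq_one_iff _).1 ((QuotientGroup.mk_pow F2 y _).trans (congrArg Subtype.val hk))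
      rw [← map_pow]
      exact h1
    · exact pow_mem (Subgroup.mem_centralizer_iff.2 fun z hz => hcon r hr hrs z hz) a
  haveI : Fact q.Prime := ⟨hq⟩
  have hodd1 : Odd (Nat.card (G ⧸ F1)) := hodd.of_dvd_nat (Subgroup.card_quotient_dvd_card F1)
  have hq2 : q ≠ 2 := prime_ne_two_of_dvd_card hodd1 (isPGroup_pCore q (G ⧸ F1)) fun h => hne (by
    rw [h, Subgroup.mem_bot] at hhb
    rw [hhb, one_mul, mul_one])
  obtain ⟨h, rfl⟩ := QuotientGroup.mk'_surjective F1 hb
  set Yq : Subgroup G := (pCore q (G ⧸ F1)).comap (QuotientGroup.mk' F1)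
  have hYqi : Invariant (σ : G ≃* G) Yq := fun y hy =>
    invariant_of_characteristic (quot σ (hF1 σ)) (pCore q (G ⧸ F1)) _ hy
  have hYq : ∀ y ∈ Yq, ∃ k, y ^ q ^ k ∈ F1 := fun y hy => by
    obtain ⟨k, hk⟩ := isPGroup_pCore q (G ⧸ F1) ⟨(y : G ⧸ F1), hy⟩
    exact ⟨k,
      (QuotientGroup.eq_one_iff _).1 ((QuotientGroup.mk_pow F1 y _).trans (congrArg Subtype.val hk))⟩
  have hc : ⁅h, u⁆ ∈ Yq := by
    rw [commutatorElement_def, mul_assoc, mul_assoc, ← mul_assoc u]
    exact mul_mem (show h ∈ Yq from hhb)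
      ((inferInstance : Yq.Normal).conj_mem _ (inv_mem (show h ∈ Yq from hhb)) u)
  refine hne (commutatorElement_eq_one_iff_mul_comm.1 ?_)
  rw [← QuotientGroup.mk'_apply F1 u, ← map_commutatorElement]
  refine (QuotientGroup.eq_one_iff _).2 (mem_fitting_of_qParts (q := q) hYq hc fun a ha r hr hrq => ?_)
  obtain ⟨j, hj⟩ := ha
  haveI : Fact r.Prime := ⟨hr⟩
  exact kills_commutator σ hσ hfpf hq2 hs2 hqs.symm hT hTi hYqi hYq ⟨p, hp, rfl⟩
    (show h ∈ Yq from hhb) hrq hj

/-- The recursion on the exponent. -/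
theorem fChain_of_fpf_two_power (k : ℕ) :
    ∀ (G : Type w) [Group G] [Finite G] [Group.IsSolvable G] (σ : MulAut G),
      σ ^ 2 ^ (k + 2) = 1 → (∀ g : G, σ g = g → g = 1) → FChain G (2 * k + 2) := by
  induction k with
  | zero =>
    intro G _ _ _ σ hσ hfpf
    exact fChain_two_of_fpf_four σ (by simpa using hσ) hfpf
  | succ k ih =>
    intro G _ _ _ σ hσ hfpf
    have hF : IsFPF (σ : G ≃* G) (2 ^ (k + 3)) :=
      ⟨hfpf, fun g => by rw [← mulAut_pow_apply, hσ]; rfl⟩
    set F1 := fittingSubgroup G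
    have hF1 : Invariant (σ : G ≃* G) F1 := invariant_of_characteristic σ F1
    have h1 := isFPF_quot hF hF1
    set σ1 : MulAut (G ⧸ F1) := quot σ hF1 with hσ1
    have hN : Invariant (σ1 : (G ⧸ F1) ≃* (G ⧸ F1)) (fittingSubgroup (G ⧸ F1)) :=
      invariant_of_characteristic σ1 _
    have h2 := isFPF_quot h1 hN
    set σ2 : MulAut ((G ⧸ F1) ⧸ fittingSubgroup (G ⧸ F1)) := quot σ1 hN with hσ2
    haveI : Group.IsSolvable (G ⧸ F1) :=
      Group.isSolvable_of_surjective (QuotientGroup.mk'_surjective F1)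
    haveI : Group.IsSolvable ((G ⧸ F1) ⧸ fittingSubgroup (G ⧸ F1)) :=
      Group.isSolvable_of_surjective (QuotientGroup.mk'_surjective _)
    have e : ∀ (i : ℕ) (z : G), (σ2 ^ i) (((z : G ⧸ F1) : _ ⧸ fittingSubgroup (G ⧸ F1))) =
        ((((σ ^ i) z : G) : G ⧸ F1) : _ ⧸ fittingSubgroup (G ⧸ F1)) := by
      intro i z
      induction i with
      | zero => rfl
      | succ i hi => rw [pow_succ', pow_succ', MulAut.mul_apply, hi]; rfl
    have hσ2' : σ2 ^ 2 ^ (k + 2) = 1 := by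
      refine MulEquiv.ext fun y => ?_
      induction y using QuotientGroup.induction_on with | _ y => ?_
      induction y using QuotientGroup.induction_on with | _ z => ?_
      rw [e]
      refine (QuotientGroup.eq.2 ?_).symm
      rw [← QuotientGroup.mk_inv, ← QuotientGroup.mk_mul]
      exact gross_step σ (k + 2) hσ hfpf z
    have h3 := ih ((G ⧸ F1) ⧸ fittingSubgroup (G ⧸ F1)) σ2 hσ2' h2.1
    exact FChain.prepend isNilpotent_fittingSubgroup (FChain.prepend isNilpotent_fittingSubgroup h3)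

end CfsgLib.HallHigmanExc
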