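/-
A Jordan block of full size on the Frattini quotient gives a wreath product section.
-/
import Mathlib
import Cfsg.Prelude.Def_LocalEven
import Cfsg.Agent.Lib.Amalgams.Involves
import Cfsg.Agent.Lib.MetacyclicP.ExpBound
import Cfsg.Agent.Lib.HallHigmanB.Reduction

set_option autoImplicit false
set_option linter.style.haveILetI false
set_option linter.unusedSectionVars false

open scoped commutatorElement

namespace CfsgLib.HallHigmanExc

open Cfsg Polynomial

universe u v w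

variable {K : Type u} [Field K] {V : Type v} [AddCommGroup V] [Module K V] {p : ℕ} [hp : Fact p.Prime]

/-- The first `p` iterates of a vector of full height are independent. -/
theorem eq_zero_of_aeval (N : Module.End K V) (hN : (N - 1) ^ p = 0) {x : V}
    (hx : ((N - 1) ^ (p - 1)) x ≠ 0) {P : K[X]} (hdeg : P.natDegree < p)
    (h : (aeval N P) x = 0) : P = 0 := by
  by_contra hP
  obtain ⟨g, hg, hgd⟩ := Polynomial.exists_eq_pow_rootMultiplicity_mul_and_not_dvd P hP 1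
  set k := P.rootMultiplicity 1
  have hg0 : g ≠ 0 := fun h0 => hP (by rw [hg, h0, mul_zero])
  have hk : k < p := by
    rw [hg, Polynomial.natDegree_mul (pow_ne_zero _ (Polynomial.X_sub_C_ne_zero _)) hg0,
      Polynomial.natDegree_pow, Polynomial.natDegree_X_sub_C, mul_one] at hdeg
    omega
  have hXN : aeval N (X - C (1 : K)) = N - 1 := by simp
  have hg1 : g.eval 1 ≠ 0 := fun h0 => hgd (Polynomial.dvd_iff_isRoot.2 h0)
  obtain ⟨g', hg'⟩ : X - C (1 : K) ∣ g - C (g.eval 1) := Polynomial.dvd_iff_isRoot.2 (by simp [IsRoot])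
  have hpk : (X - C (1 : K)) ^ (p - 1 - k) * P =
      g' * (X - C 1) ^ p + C (g.eval 1) * (X - C 1) ^ (p - 1) := by
    generalize g.eval 1 = γ at hg' ⊢
    rw [hg, ← mul_assoc, ← pow_add, show p - 1 - k + k = p - 1 by omega,
      show (X - C (1 : K)) ^ p = (X - C 1) * (X - C 1) ^ (p - 1) by
        rw [← pow_succ', show p - 1 + 1 = p by omega], eq_add_of_sub_eq hg']
    ring
  have h2 := LinearMap.congr_fun (congrArg (aeval N) hpk) x
  simp only [map_mul, map_pow, map_add, hXN, aeval_C, hN, mul_zero, zero_add, Module.End.mul_apply,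
    h, map_zero, Module.algebraMap_end_apply] at h2
  exact hx ((smul_eq_zero.1 h2.symm).resolve_left hg1)

/-- The combinations of the cyclic orbit of `x`, and the fixed ones among them. -/
theorem card_combinations [CharP K p] (N : Module.End K V) (hN : N ^ p = 1) {x : V}
    (hx : ((N - 1) ^ (p - 1)) x ≠ 0) :
    Nat.card (AddSubgroup.closure (Set.range fun i : Fin p => (N ^ (i : ℕ)) x)) = p ^ p ∧
    Nat.card {s : V // s ∈ AddSubgroup.closure (Set.range fun i : Fin p => (N ^ (i : ℕ)) x) ∧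
      N s = s} = p ∧
    ∀ s ∈ AddSubgroup.closure (Set.range fun i : Fin p => (N ^ (i : ℕ)) x), N s = s →
      ∃ a : ℕ, s = a • ∑ i ∈ Finset.range p, (N ^ i) x := by
  classical
  haveI : Nontrivial (Module.End K V) := by
    refine nontrivial_of_ne ((N - 1) ^ (p - 1)) 0 fun h => hx (by rw [h]; rfl)
  haveI : CharP (Module.End K V) p :=
    charP_of_injective_algebraMap (algebraMap K (Module.End K V)).injective p
  have hN1 : (N - 1) ^ p = 0 := by
    have h := sub_pow_char_pow_of_commute (p := p) 1 (Commute.one_right N)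
    rw [pow_one, one_pow, hN, sub_self] at h
    exact h
  let w : ZMod p → V := fun i => (N ^ i.val) x
  let φ : ZMod p →+* K := ZMod.castHom dvd_rfl K
  let Φ : (ZMod p → ZMod p) →+ V :=
    { toFun := fun c => ∑ i, φ (c i) • w i
      map_zero' := by simp
      map_add' := fun c c' => by simp [add_smul, Finset.sum_add_distrib] }
  have hpred : ∀ i : ZMod p, i.val < p := fun i => ZMod.val_lt i
  have hwinj : Function.Injective Φ := by
    refine (injective_iff_map_eq_zero Φ).2 fun c hc => ?_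
    let P : K[X] := ∑ i : ZMod p, C (φ (c i)) * X ^ i.val
    have hP : P = 0 := by
      refine eq_zero_of_aeval N hN1 hx ?_ ?_
      · refine lt_of_le_of_lt (Polynomial.natDegree_sum_le_of_forall_le (n := p - 1) _ _ fun i _ => ?_)
          (Nat.sub_lt hp.out.pos one_pos)
        exact le_trans (Polynomial.natDegree_C_mul_X_pow_le _ _) (by have := hpred i; omega)
      · simpa [P, Φ, w, map_sum, LinearMap.sum_apply, Module.algebraMap_end_apply] using hc
    funext i
    have h1 : P.coeff i.val = φ (c i) := by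
      rw [Polynomial.finsetSum_coeff, Finset.sum_eq_single i]
      · simp
      · intro j _ hj
        rw [Polynomial.coeff_C_mul_X_pow, if_neg fun h => hj (ZMod.val_injective p h.symm)]
      · simp
    rw [hP, Polynomial.coeff_zero] at h1
    exact φ.injective (h1.symm.trans (map_zero φ).symm)
  set S := AddSubgroup.closure (Set.range fun i : Fin p => (N ^ (i : ℕ)) x) with hS
  have hSr : S = Φ.range := by
    refine le_antisymm ?_ ?_
    · rw [hS, AddSubgroup.closure_le]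
      rintro _ ⟨i, rfl⟩
      refine ⟨Pi.single (i : ℕ) 1, ?_⟩
      show ∑ j, φ (Pi.single (M := fun _ => ZMod p) ((i : ℕ) : ZMod p) 1 j) • w j = _
      rw [Finset.sum_eq_single ((i : ℕ) : ZMod p)]
      · rw [Pi.single_eq_same, map_one, one_smul]
        show (N ^ ((i : ℕ) : ZMod p).val) x = _
        rw [ZMod.val_natCast_of_lt i.2]
      · intro j _ hj
        rw [Pi.single_eq_of_ne hj, map_zero, zero_smul]
      · simp
    · rintro _ ⟨c, rfl⟩
      rw [hS]
      refine AddSubgroup.sum_mem _ fun i _ => ?_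
      rw [show φ (c i) = ((c i).val : K) by rw [← map_natCast φ, ZMod.natCast_zmod_val],
        Nat.cast_smul_eq_nsmul]
      refine AddSubgroup.nsmul_mem _ ?_ _
      exact AddSubgroup.subset_closure ⟨⟨i.val, hpred i⟩, rfl⟩
  have hNw : ∀ i, N (w i) = w (i + 1) := fun i => by
    show N ((N ^ i.val) x) = (N ^ (i + 1).val) x
    rw [← Module.End.mul_apply, ← pow_succ']
    have hm : N ^ (i.val + 1) = N ^ ((i.val + 1) % p) := pow_eq_pow_mod _ hN
    rw [hm, ← ZMod.val_natCast p (i.val + 1), Nat.cast_add, ZMod.natCast_zmod_val, Nat.cast_one]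
  have hNΦ : ∀ c, N (Φ c) = Φ (fun i => c (i - 1)) := fun c => by
    show N (∑ i, φ (c i) • w i) = ∑ i, φ (c (i - 1)) • w i
    rw [map_sum]
    simp only [map_smul, hNw]
    exact Fintype.sum_equiv (Equiv.addRight (1 : ZMod p)) _ _ fun i => by simp
  have hconst : ∀ c, N (Φ c) = Φ c → c = fun _ => c 0 := by
    intro c hc
    rw [hNΦ] at hc
    have h1 := hwinj hc
    have h2 : ∀ n : ℕ, c (n : ZMod p) = c 0 := by
      intro n
      induction n with
      | zero => rw [Nat.cast_zero]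
      | succ n ih =>
        rw [← ih, ← congrFun h1 ((n + 1 : ℕ) : ZMod p)]
        show c ((n + 1 : ℕ) - 1) = _
        simp
    funext i
    rw [← ZMod.natCast_zmod_val i, h2]
  have hfix : ∀ a : ZMod p, N (Φ fun _ => a) = Φ fun _ => a := fun a => hNΦ _
  refine ⟨?_, ?_, ?_⟩
  · rw [hSr, ← Nat.card_congr (AddMonoidHom.ofInjective hwinj).toEquiv, Nat.card_fun, Nat.card_zmod]
  · have : Function.Bijective (fun a : ZMod p =>
        (⟨Φ fun _ => a, hSr ▸ ⟨_, rfl⟩, hfix a⟩ : {s : V // s ∈ S ∧ N s = s})) := by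
      refine ⟨fun a b h => congrFun (hwinj (congrArg Subtype.val h)) 0, ?_⟩
      rintro ⟨s, hs, hs'⟩
      rw [hSr] at hs
      obtain ⟨c, rfl⟩ := hs
      exact ⟨c 0, Subtype.ext (congrArg Φ (hconst c hs').symm)⟩
    rw [← Nat.card_congr (Equiv.ofBijective _ this), Nat.card_zmod]
  · intro s hs hs'
    rw [hSr] at hs
    obtain ⟨c, rfl⟩ := hs
    refine ⟨(c 0).val, ?_⟩
    rw [hconst c hs']
    show ∑ i, φ (c 0) • w i = _
    rw [← Finset.smul_sum, show φ (c 0) = ((c 0).val : K) by rw [← map_natCast φ, ZMod.natCast_zmod_val],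
      Nat.cast_smul_eq_nsmul]
    congr 1
    refine Finset.sum_bij (fun i _ => i.val) (fun i _ => Finset.mem_range.2 (hpred i))
      (fun i _ j _ h => ZMod.val_injective p h)
      (fun n hn => ⟨(n : ZMod p), Finset.mem_univ _, ZMod.val_natCast_of_lt (Finset.mem_range.1 hn)⟩)
      fun i _ => rfl

/-- Groups of the form excluded from the Sylow subgroups. -/
def IsWreathLike (p : ℕ) (W : Type) [Group W] : Prop :=
  ∃ (B : Subgroup W) (t : W), B.Normal ∧ IsMulCommutative B ∧ (∀ b ∈ B, b ^ p = 1) ∧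
    Nat.card B = p ^ p ∧ orderOf t = p ∧ t ∉ B ∧ Nat.card W = p ^ (p + 1) ∧
    Nat.card ↥(B ⊓ Subgroup.centralizer ({t} : Set W)) = p

variable {G : Type w} [Group G] [Finite G]

set_option maxHeartbeats 1000000 in
theorem exists_wreath_section [CharP K p] {P : Subgroup G} [P.Normal]
    (r : P → V) (hr : ∀ a b, r (a * b) = r a + r b) (hr0 : ∀ a, r a = 0 ↔ a ∈ frattini P)
    (ρ : G ⧸ P →* Module.End K V)
    (hρ : ∀ (g : G) (x : P),
      r ⟨g * x * g⁻¹, (inferInstance : P.Normal).conj_mem _ x.2 g⟩ = ρ g (r x))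
    {T : Subgroup G} (hPT : P ≤ T) {g : G} (hg : g ∈ T) (hgP : g ^ p ∈ P) {v : P}
    (hv : ((ρ g - 1) ^ (p - 1)) (r v) ≠ 0) :
    ∃ (W : Type) (_ : Group W) (_ : Finite W), IsWreathLike p W ∧ Involves W T := by
  classical
  set N := ρ g with hNdef
  have hN : N ^ p = 1 := by
    rw [hNdef, ← map_pow, ← QuotientGroup.mk_pow, (QuotientGroup.eq_one_iff _).2 hgP, map_one]
  obtain ⟨hcardS, hcardF, hfixS⟩ := card_combinations (p := p) N hN hv
  set S := AddSubgroup.closure (Set.range fun i : Fin p => (N ^ (i : ℕ)) (r v))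
  have hr1 : r 1 = 0 := (hr0 1).2 (one_mem _)
  let R : Additive P →+ V :=
    { toFun := fun a => r (Additive.toMul a), map_zero' := hr1, map_add' := fun a b => hr _ _ }
  have hrinv : ∀ a : P, r a⁻¹ = - r a := fun a => map_neg R (Additive.ofMul a)
  have hrn : ∀ (a : P) (n : ℕ), r (a ^ n) = n • r a := fun a n => map_nsmul R n (Additive.ofMul a)
  have hrz : ∀ (a : P) (n : ℤ), r (a ^ n) = n • r a := fun a n => map_zsmul R n (Additive.ofMul a)
  let conjP : G → P → P := fun y a => ⟨y * a * y⁻¹, (inferInstance : P.Normal).conj_mem _ a.2 y⟩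
  -- adjust `g`
  obtain ⟨g₁, hg₁T, hg₁u, w, hw, hwS⟩ : ∃ g₁ : G, g₁ ∈ T ∧ ρ g₁ = N ∧ ∃ w : P,
      (w : G) = g₁ ^ p ∧ (r w ∈ S → r w = 0) := by
    by_cases hwS : r ⟨g ^ p, hgP⟩ ∈ S
    · have hfix : N (r ⟨g ^ p, hgP⟩) = r ⟨g ^ p, hgP⟩ := by
        rw [hNdef, ← hρ g]
        exact congrArg r (Subtype.ext (by
          show g * g ^ p * g⁻¹ = g ^ p
          rw [← pow_succ', pow_succ, mul_inv_cancel_right]))
      obtain ⟨a, ha⟩ := hfixS _ hwS hfix
      obtain ⟨k, hk⟩ : ∃ k : ℕ, p ∣ a + k := ⟨(p - 1) * a, a, by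
        rw [add_comm, ← Nat.succ_mul, Nat.succ_eq_add_one, Nat.sub_add_cancel hp.out.one_le]⟩
      have hgN : ρ (((v ^ k : P) : G) * g : G) = N := by
        rw [hNdef]
        refine congrArg ρ ?_
        rw [QuotientGroup.mk_mul, (QuotientGroup.eq_one_iff _).2 (v ^ k).2, one_mul]
      obtain ⟨w, hw, hrw⟩ := CfsgLib.MetacyclicP.exists_pow_eq (P := P) r hr
        (fun y => (ρ y).toAddMonoidHom) hρ g (v ^ k) p
      refine ⟨((v ^ k : P) : G) * g, T.mul_mem (hPT (v ^ k).2) hg, hgN, w * ⟨g ^ p, hgP⟩, hw.symm,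
        fun _ => ?_⟩
      have h1 : r w = k • ∑ i ∈ Finset.range p, (N ^ i) (r v) := by
        rw [hrw, Finset.smul_sum]
        refine Finset.sum_congr rfl fun i _ => ?_
        rw [hrn, ← map_nsmul, Module.End.pow_apply, hNdef]
        rfl
      rw [hr, h1, ha, ← add_smul, add_comm k a]
      obtain ⟨c, hc⟩ := hk
      rw [hc, mul_smul, ← Nat.cast_smul_eq_nsmul K p, CharP.cast_eq_zero, zero_smul]
    · exact ⟨g, hg, rfl, ⟨g ^ p, hgP⟩, rfl, fun h => absurd h hwS⟩
  have hg₁P : g₁ ∉ P := fun h => by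
    apply hv
    have h1 : N = 1 := by rw [← hg₁u, (QuotientGroup.eq_one_iff g₁).2 h, map_one]
    rw [h1, sub_self, zero_pow (by have := hp.out.two_le; omega), LinearMap.zero_apply]
  set Φ := (frattini P).map P.subtype with hΦ
  have hΦP : Φ ≤ P := Subgroup.map_subtype_le _
  have hΦr : ∀ a : P, (a : G) ∈ Φ ↔ r a = 0 := fun a => by
    rw [hr0]
    exact ⟨fun ⟨b, hb, h⟩ => P.subtype_injective h ▸ hb, fun h => ⟨a, h, rfl⟩⟩
  haveI : Φ.Normal := ⟨by
    rintro _ ⟨a, ha, rfl⟩ y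
    refine (hΦr (conjP y a)).2 ?_
    show r (conjP y a) = 0
    rw [show r (conjP y a) = ρ y (r a) from hρ y a, (hr0 a).2 ha, map_zero]⟩
  set L := Φ ⊔ Subgroup.zpowers (w : G) with hL
  have hLP : L ≤ P := sup_le hΦP (Subgroup.zpowers_le.2 w.2)
  have hLr : ∀ a : P, (a : G) ∈ L → ∃ n : ℤ, r a = n • r w := by
    intro a ha
    obtain ⟨f, hf, z, hz, hfz⟩ := Subgroup.mem_sup_of_normal_left.1 ha
    obtain ⟨n, rfl⟩ := Subgroup.mem_zpowers_iff.1 hz
    refine ⟨n, ?_⟩
    have : a = ⟨f, hΦP hf⟩ * w ^ n := Subtype.ext (by simpa using hfz.symm)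
    rw [this, hr, (hΦr ⟨f, hΦP hf⟩).1 hf, zero_add, hrz]
  have hcommP : ∀ a b : P, r (a * b * a⁻¹ * b⁻¹) = 0 := fun a b => by
    rw [hr, hr, hr, hrinv, hrinv]; abel
  set Y := Subgroup.closure ({(v : G), g₁} : Set G) with hY
  have hYT : Y ≤ T := (Subgroup.closure_le _).2 (by
    rintro x (rfl | rfl)
    · exact hPT v.2
    · exact hg₁T)
  have hvY : (v : G) ∈ Y := Subgroup.subset_closure (Or.inl rfl)
  have hgY : g₁ ∈ Y := Subgroup.subset_closure (Or.inr rfl)
  have hYL : Y ≤ Subgroup.normalizer (L : Set G) := by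
    rw [hY, Subgroup.closure_le]
    have key : ∀ y : G, (∀ z : P, (z : G) = w → r (conjP y z) = r z) →
        y ∈ Subgroup.normalizer (L : Set G) := by
      intro y hy
      rw [← CfsgLib.CoprimeAction.conj_smul_eq_self]
      show L.map (MulAut.conj y).toMonoidHom = L
      have hwL : y * w * y⁻¹ * (w : G)⁻¹ ∈ Φ := (hΦr (conjP y w * w⁻¹)).2 (by
        rw [hr, hy w rfl, hrinv, add_neg_cancel])
      have hΦm : Φ.map (MulAut.conj y).toMonoidHom = Φ := Subgroup.Normal.map_conj_eq Φ y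
      rw [hL, Subgroup.map_sup, hΦm, MonoidHom.map_zpowers]
      show Φ ⊔ Subgroup.zpowers (y * w * y⁻¹) = _
      refine le_antisymm (sup_le le_sup_left (Subgroup.zpowers_le.2 ?_))
        (sup_le le_sup_left (Subgroup.zpowers_le.2 ?_))
      · rw [show y * w * y⁻¹ = (y * w * y⁻¹ * (w : G)⁻¹) * w by group]
        exact mul_mem (Subgroup.mem_sup_left hwL) (Subgroup.mem_sup_right (Subgroup.mem_zpowers _))
      · have hm : (y * w * y⁻¹ * (w : G)⁻¹)⁻¹ * (y * w * y⁻¹) ∈ Φ ⊔ Subgroup.zpowers (y * w * y⁻¹) :=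
          mul_mem (Subgroup.mem_sup_left (Φ.inv_mem hwL))
            (Subgroup.mem_sup_right (Subgroup.mem_zpowers _))
        rwa [show (y * w * y⁻¹ * (w : G)⁻¹)⁻¹ * (y * w * y⁻¹) = (w : G) by group] at hm
    rintro y (rfl | rfl)
    · refine key _ fun z _ => ?_
      rw [show conjP (v : G) z = v * z * v⁻¹ from Subtype.ext rfl, hr, hr, hrinv]
      abel
    · refine key _ fun z hz => ?_
      refine congrArg r (Subtype.ext ?_)
      show y * (z : G) * y⁻¹ = z
      rw [hz, hw, ← pow_succ', pow_succ, mul_inv_cancel_right]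
  haveI hLn : (L.subgroupOf Y).Normal := ⟨fun x hx y =>
    (Subgroup.mem_normalizer_iff.1 (hYL y.2) _).1 hx⟩
  let mk := QuotientGroup.mk' (L.subgroupOf Y)
  have hmk1 : ∀ y : Y, mk y = 1 ↔ (y : G) ∈ L := fun y => QuotientGroup.eq_one_iff y
  -- the base
  set B0 := Subgroup.closure (Set.range fun i : Fin p =>
    (⟨g₁ ^ (i : ℕ) * v * (g₁ ^ (i : ℕ))⁻¹,
      Y.mul_mem (Y.mul_mem (Y.pow_mem hgY _) hvY) (Y.inv_mem (Y.pow_mem hgY _))⟩ : Y)) with hB0
  have hB0P : ∀ b ∈ B0, (b : G) ∈ P := by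
    intro b hb
    induction hb using Subgroup.closure_induction with
    | mem x hx => obtain ⟨i, rfl⟩ := hx; exact (inferInstance : P.Normal).conj_mem _ v.2 _
    | one => exact P.one_mem
    | mul x y _ _ h1 h2 => exact P.mul_mem h1 h2
    | inv x _ h1 => exact P.inv_mem h1
  let rb : B0 →* Multiplicative V :=
    { toFun := fun b => Multiplicative.ofAdd (r ⟨_, hB0P b b.2⟩)
      map_one' := congrArg Multiplicative.ofAdd hr1
      map_mul' := fun a b => by
        rw [← ofAdd_add, ← hr]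
        exact congrArg Multiplicative.ofAdd (congrArg r (Subtype.ext rfl)) }
  have hrg : ∀ i : ℕ, r (conjP (g₁ ^ i) v) = (N ^ i) (r v) := fun i => by
    show r ⟨_, _⟩ = _
    rw [hρ, QuotientGroup.mk_pow, map_pow, hg₁u]
  have hrB : ∀ b (hb : b ∈ B0), r ⟨_, hB0P b hb⟩ ∈ S := by
    intro b hb
    induction hb using Subgroup.closure_induction with
    | mem x hx =>
      obtain ⟨i, rfl⟩ := hx
      rw [show r ⟨_, _⟩ = (N ^ (i : ℕ)) (r v) from hrg i]
      exact AddSubgroup.subset_closure ⟨i, rfl⟩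
    | one => exact hr1.symm ▸ S.zero_mem
    | mul x y hx hy h1 h2 =>
      have h := S.add_mem h1 h2
      rw [← hr] at h
      exact h
    | inv x hx h1 =>
      have h := S.neg_mem h1
      rw [← hrinv] at h
      exact h
  have hSB : ∀ s ∈ S, ∃ b : B0, r ⟨_, hB0P b b.2⟩ = s := by
    intro s hs
    induction hs using AddSubgroup.closure_induction with
    | mem x hx =>
      obtain ⟨i, rfl⟩ := hx
      exact ⟨⟨_, Subgroup.subset_closure ⟨i, rfl⟩⟩, hrg i⟩
    | zero => exact ⟨1, hr1⟩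
    | add x y _ _ h1 h2 =>
      obtain ⟨a, rfl⟩ := h1
      obtain ⟨b, rfl⟩ := h2
      exact ⟨a * b, by rw [← hr]; rfl⟩
    | neg x _ h1 =>
      obtain ⟨a, rfl⟩ := h1
      exact ⟨a⁻¹, by rw [← hrinv]; rfl⟩
  have hmkeq : ∀ a b : B0, mk a = mk b ↔ r ⟨_, hB0P a a.2⟩ = r ⟨_, hB0P b b.2⟩ := by
    intro a b
    have e : r ⟨_, hB0P _ (a⁻¹ * b).2⟩ = - r ⟨_, hB0P a a.2⟩ + r ⟨_, hB0P b b.2⟩ := by
      rw [← hrinv, ← hr]; rfl
    constructor
    · intro h
      have h1 : mk ((a⁻¹ * b : B0) : Y) = 1 := by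
        rw [Subgroup.coe_mul, Subgroup.coe_inv, map_mul, map_inv, h, inv_mul_cancel]
      obtain ⟨n, hn⟩ := hLr ⟨_, hB0P _ (a⁻¹ * b).2⟩ ((hmk1 _).1 h1)
      have h2 : r ⟨_, hB0P _ (a⁻¹ * b).2⟩ = 0 := by
        rw [hn]
        by_cases hw0 : r w = 0
        · rw [hw0, smul_zero]
        have hnS : n • r w ∈ S := hn ▸ hrB _ (a⁻¹ * b).2
        have hdvd : ((n : ℤ) : K) = 0 := by
          by_contra hne
          have hnp : ¬ (p : ℤ) ∣ n := fun h => hne ((CharP.intCast_eq_zero_iff K p n).2 h)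
          obtain ⟨a', b', hab⟩ : IsCoprime n (p : ℤ) :=
            ((Nat.prime_iff_prime_int.1 hp.out).coprime_iff_not_dvd.2 hnp).symm
          apply hw0
          apply hwS
          have h5 : (a' * n) • r w + (b' * (p : ℤ)) • r w = r w := by rw [← add_smul, hab, one_smul]
          rw [← h5, mul_smul, mul_smul, ← Int.cast_smul_eq_zsmul K (p : ℤ), Int.cast_natCast,
            CharP.cast_eq_zero, zero_smul, smul_zero, add_zero]
          exact S.zsmul_mem hnS a'
        rw [← Int.cast_smul_eq_zsmul K, hdvd, zero_smul]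
      rw [e, neg_add_eq_zero] at h2
      exact h2
    · intro h
      have h1 : mk ((a⁻¹ * b : B0) : Y) = 1 := by
        refine (hmk1 _).2 (Subgroup.mem_sup_left ((hΦr ⟨_, hB0P _ (a⁻¹ * b).2⟩).2 ?_))
        rw [e, h, neg_add_cancel]
      rw [Subgroup.coe_mul, Subgroup.coe_inv, map_mul, map_inv, inv_mul_eq_one] at h1
      exact h1
  set B := B0.map mk with hB
  have hBS : Nat.card B = p ^ p := by
    rw [← hcardS]
    let f : B → S := fun x => ⟨r ⟨_, hB0P _ (Subgroup.mem_map.1 x.2).choose_spec.1⟩,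
      hrB _ (Subgroup.mem_map.1 x.2).choose_spec.1⟩
    refine Nat.card_congr (Equiv.ofBijective f ⟨fun x y h => ?_, fun s => ?_⟩)
    · obtain ⟨hx1, hx2⟩ := (Subgroup.mem_map.1 x.2).choose_spec
      obtain ⟨hy1, hy2⟩ := (Subgroup.mem_map.1 y.2).choose_spec
      refine Subtype.ext ?_
      rw [← hx2, ← hy2]
      exact (hmkeq ⟨_, hx1⟩ ⟨_, hy1⟩).2 (congrArg Subtype.val h)
    · obtain ⟨b, hb⟩ := hSB s s.2
      refine ⟨⟨mk b, Subgroup.mem_map_of_mem mk b.2⟩, Subtype.ext ?_⟩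
      have hs := (Subgroup.mem_map.1 (Subgroup.mem_map_of_mem mk b.2)).choose_spec
      exact ((hmkeq ⟨_, hs.1⟩ b).1 hs.2).trans hb
  set t := mk ⟨g₁, hgY⟩ with ht
  have htp : t ^ p = 1 := by
    rw [ht, ← map_pow, hmk1]
    exact Subgroup.mem_sup_right ⟨1, by simp [hw]⟩
  have htB : t ∉ B := by
    rintro ⟨b, hb, he⟩
    apply hg₁P
    have h1 : ((b : G))⁻¹ * g₁ ∈ P := hLP (QuotientGroup.eq.1 he :)
    have h2 := P.mul_mem (hB0P b hb) h1
    rwa [mul_inv_cancel_left] at h2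
  have hord : orderOf t = p := orderOf_eq_prime htp fun h => htB (h ▸ B.one_mem)
  have hBcomm : IsMulCommutative B := by
    refine ⟨⟨?_⟩⟩
    rintro ⟨_, a, ha, rfl⟩ ⟨_, b, hb, rfl⟩
    refine Subtype.ext ?_
    show mk a * mk b = mk b * mk a
    rw [← map_mul, ← map_mul]
    refine (hmkeq ⟨_, B0.mul_mem ha hb⟩ ⟨_, B0.mul_mem hb ha⟩).2 ?_
    show r (⟨_, hB0P a ha⟩ * ⟨_, hB0P b hb⟩) = r (⟨_, hB0P b hb⟩ * ⟨_, hB0P a ha⟩)
    rw [hr, hr, add_comm]
  have hBexp : ∀ x ∈ B, x ^ p = 1 := by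
    rintro _ ⟨b, hb, rfl⟩
    rw [← map_pow, hmk1]
    refine Subgroup.mem_sup_left ((hΦr (⟨_, hB0P b hb⟩ ^ p)).2 ?_)
    rw [hrn, ← Nat.cast_smul_eq_nsmul K, CharP.cast_eq_zero, zero_smul]
  -- the image of `v` generates with `t`
  have hgen : (⊤ : Subgroup (Y ⧸ L.subgroupOf Y)) = B ⊔ Subgroup.zpowers t := by
    refine (top_le_iff.1 fun x _ => ?_).symm
    obtain ⟨y, rfl⟩ := QuotientGroup.mk'_surjective _ x
    have key : ∀ z (hz : z ∈ Y), mk ⟨z, hz⟩ ∈ B ⊔ Subgroup.zpowers t := by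
      intro z hz
      induction hz using Subgroup.closure_induction with
      | mem z hz' =>
        rcases hz' with rfl | rfl
        · refine Subgroup.mem_sup_left ⟨⟨(v : G), hvY⟩, Subgroup.subset_closure ⟨⟨0, hp.out.pos⟩,
            Subtype.ext (by simp)⟩, rfl⟩
        · exact Subgroup.mem_sup_right (Subgroup.mem_zpowers t)
      | one => exact (map_one mk).symm ▸ one_mem _
      | mul a b ha hb h1 h2 =>
        rw [show (⟨a * b, _⟩ : Y) = ⟨a, ha⟩ * ⟨b, hb⟩ from rfl, map_mul]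
        exact mul_mem h1 h2
      | inv a ha h1 =>
        rw [show (⟨a⁻¹, _⟩ : Y) = (⟨a, ha⟩ : Y)⁻¹ from rfl, map_inv]
        exact inv_mem h1
    exact key y y.2
  have htnorm : ∀ x ∈ B, t * x * t⁻¹ ∈ B := by
    rintro _ ⟨b, hb, rfl⟩
    rw [ht, ← map_inv, ← map_mul, ← map_mul]
    have hmem : r (conjP g₁ ⟨_, hB0P b hb⟩) ∈ S := by
      show r ⟨_, _⟩ ∈ S
      rw [hρ, hg₁u]
      obtain ⟨s, hs, hs'⟩ : ∃ s ∈ S, r ⟨_, hB0P b hb⟩ = s := ⟨_, hrB b hb, rfl⟩
      rw [hs']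
      clear hs' hb
      induction hs using AddSubgroup.closure_induction with
      | mem x hx =>
        obtain ⟨i, rfl⟩ := hx
        rw [← Module.End.mul_apply, ← pow_succ', pow_eq_pow_mod _ hN]
        exact AddSubgroup.subset_closure ⟨⟨_, Nat.mod_lt _ hp.out.pos⟩, rfl⟩
      | zero => rw [map_zero]; exact zero_mem _
      | add x y _ _ h1 h2 => rw [map_add]; exact add_mem h1 h2
      | neg x _ h1 => rw [map_neg]; exact neg_mem h1
    obtain ⟨c, hc⟩ := hSB _ hmem
    refine ⟨c, c.2, ?_⟩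
    refine (QuotientGroup.eq).2 ?_
    show ((c : Y) : G)⁻¹ * (g₁ * (b : G) * g₁⁻¹) ∈ L
    refine Subgroup.mem_sup_left ((hΦr (⟨_, hB0P c c.2⟩⁻¹ * conjP g₁ ⟨_, hB0P b hb⟩)).2 ?_)
    rw [hr, hrinv, hc, neg_add_cancel]
  haveI hBn : B.Normal := by
    rw [← Subgroup.normalizer_eq_top_iff, eq_top_iff, hgen, sup_le_iff, Subgroup.zpowers_le]
    refine ⟨Subgroup.le_normalizer, ?_⟩
    refine CfsgLib.CoprimeAction.mem_normalizer_of_conj_mem ?_
    exact htnorm
  have hcard : Nat.card (Y ⧸ L.subgroupOf Y) = p ^ (p + 1) := by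
    have h1 := Subgroup.card_eq_card_quotient_mul_card_subgroup B
    have h2 : Nat.card ((Y ⧸ L.subgroupOf Y) ⧸ B) = p := by
      have h3 : (⊤ : Subgroup ((Y ⧸ L.subgroupOf Y) ⧸ B)) =
          Subgroup.zpowers (QuotientGroup.mk' B t) := by
        rw [← Subgroup.map_top_of_surjective _ (QuotientGroup.mk'_surjective B), hgen, Subgroup.map_sup,
          (Subgroup.map_eq_bot_iff _).2 (by rw [QuotientGroup.ker_mk']), bot_sup_eq, MonoidHom.map_zpowers]
      rw [← Subgroup.card_top, h3, Nat.card_zpowers]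
      exact orderOf_eq_prime (by rw [← map_pow, htp, map_one])
        fun h => htB ((QuotientGroup.eq_one_iff t).1 h)
    rw [h1, h2, hBS, pow_succ']
  have hcentB : Nat.card ↥(B ⊓ Subgroup.centralizer ({t} : Set (Y ⧸ L.subgroupOf Y))) = p := by
    rw [← hcardF]
    have hiff : ∀ b (hb : b ∈ B0), t * mk b = mk b * t ↔
        N (r ⟨_, hB0P b hb⟩) = r ⟨_, hB0P b hb⟩ := by
      intro b hb
      obtain ⟨c, hc, hce⟩ := htnorm (mk b) (Subgroup.mem_map_of_mem mk hb)
      rw [← mul_inv_eq_iff_eq_mul, ← hce, hmkeq ⟨c, hc⟩ ⟨b, hb⟩]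
      suffices h : r ⟨_, hB0P c hc⟩ = N (r ⟨_, hB0P b hb⟩) by rw [h]
      have h1 : (c : G)⁻¹ * (g₁ * (b : G) * g₁⁻¹) ∈ L := by
        rw [ht, ← map_inv, ← map_mul, ← map_mul] at hce
        exact (QuotientGroup.eq (s := L.subgroupOf Y)).1 hce
      obtain ⟨n, hn⟩ := hLr (⟨_, hB0P c hc⟩⁻¹ * conjP g₁ ⟨_, hB0P b hb⟩) h1
      have h2 : r (conjP g₁ ⟨_, hB0P b hb⟩) = N (r ⟨_, hB0P b hb⟩) := by
        show r ⟨_, _⟩ = _
        rw [hρ, hg₁u]
      obtain ⟨c', hc'⟩ := hSB (N (r ⟨_, hB0P b hb⟩)) (by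
        rw [← h2]
        have hd := hrB c hc
        have hnS : n • r w ∈ S ∨ r w = 0 ∨ True := Or.inr (Or.inr trivial)
        obtain ⟨d, hd1, hd2⟩ : ∃ d, d ∈ S ∧ r (conjP g₁ ⟨_, hB0P b hb⟩) = d := by
          refine ⟨_, ?_, rfl⟩
          rw [h2]
          have hs := hrB b hb
          generalize r ⟨_, hB0P b hb⟩ = s at hs
          induction hs using AddSubgroup.closure_induction with
          | mem x hx =>
            obtain ⟨i, rfl⟩ := hx
            rw [← Module.End.mul_apply, ← pow_succ', pow_eq_pow_mod _ hN]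
            exact AddSubgroup.subset_closure ⟨⟨_, Nat.mod_lt _ hp.out.pos⟩, rfl⟩
          | zero => rw [map_zero]; exact zero_mem _
          | add x y _ _ ha hb => rw [map_add]; exact add_mem ha hb
          | neg x _ ha => rw [map_neg]; exact neg_mem ha
        rw [hd2]; exact hd1)
      have h3 : mk (c' : Y) = mk c := by
        refine ((QuotientGroup.eq).2 ?_).trans hce.symm
        show ((c' : Y) : G)⁻¹ * (g₁ * (b : G) * g₁⁻¹) ∈ L
        refine Subgroup.mem_sup_left ((hΦr (⟨_, hB0P c' c'.2⟩⁻¹ * conjP g₁ ⟨_, hB0P b hb⟩)).2 ?_)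
        rw [hr, hrinv, hc', h2, neg_add_cancel]
      exact ((hmkeq c' ⟨c, hc⟩).1 h3).symm.trans hc'
    let f : ↥(B ⊓ Subgroup.centralizer ({t} : Set (Y ⧸ L.subgroupOf Y))) →
        {s : V // s ∈ S ∧ N s = s} := fun x =>
      ⟨r ⟨_, hB0P _ (Subgroup.mem_map.1 x.2.1).choose_spec.1⟩,
        hrB _ (Subgroup.mem_map.1 x.2.1).choose_spec.1,
        (hiff _ (Subgroup.mem_map.1 x.2.1).choose_spec.1).1 (by
          rw [(Subgroup.mem_map.1 x.2.1).choose_spec.2]
          exact Subgroup.mem_centralizer_iff.1 x.2.2 t rfl)⟩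
    refine Nat.card_congr (Equiv.ofBijective f ⟨fun x y h => ?_, fun s => ?_⟩)
    · obtain ⟨hx1, hx2⟩ := (Subgroup.mem_map.1 x.2.1).choose_spec
      obtain ⟨hy1, hy2⟩ := (Subgroup.mem_map.1 y.2.1).choose_spec
      refine Subtype.ext ?_
      rw [← hx2, ← hy2]
      exact (hmkeq ⟨_, hx1⟩ ⟨_, hy1⟩).2 (congrArg Subtype.val h)
    · obtain ⟨b, hb⟩ := hSB s.1 s.2.1
      have hbc : mk b ∈ Subgroup.centralizer ({t} : Set (Y ⧸ L.subgroupOf Y)) := by
        rw [Subgroup.mem_centralizer_singleton_iff]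
        refine ((hiff b b.2).2 ?_).symm
        rw [hb]; exact s.2.2
      refine ⟨⟨mk b, Subgroup.mem_map_of_mem mk b.2, hbc⟩, Subtype.ext ?_⟩
      have hs := (Subgroup.mem_map.1 (Subgroup.mem_map_of_mem mk b.2)).choose_spec
      exact ((hmkeq ⟨_, hs.1⟩ b).1 hs.2).trans hb
  -- transport to a small type
  obtain ⟨n, ⟨eq0⟩⟩ := Finite.exists_equiv_fin (Y ⧸ L.subgroupOf Y)
  let eq : (Y ⧸ L.subgroupOf Y) ≃ {_i : Fin n // True} :=
    eq0.trans (Equiv.subtypeUnivEquiv fun _ => trivial).symm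
  letI : Group {_i : Fin n // True} := eq.symm.group
  let e : (Y ⧸ L.subgroupOf Y) ≃* {_i : Fin n // True} := (eq.symm.mulEquiv).symm
  refine ⟨{_i : Fin n // True}, inferInstance, inferInstance, ⟨B.map e.toMonoidHom, e t, ?_, ?_, ?_, ?_, ?_, ?_, ?_, ?_⟩, ?_⟩
  · exact hBn.map _ e.surjective
  · refine ⟨⟨?_⟩⟩
    rintro ⟨_, a, ha, rfl⟩ ⟨_, b, hb, rfl⟩
    refine Subtype.ext ?_
    show e a * e b = e b * e a
    rw [← map_mul, ← map_mul]
    exact congrArg e (congrArg Subtype.val (hBcomm.is_comm.comm ⟨a, ha⟩ ⟨b, hb⟩) :)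
  · rintro _ ⟨b, hb, rfl⟩
    rw [← map_pow, hBexp b hb, map_one]
  · rw [Subgroup.card_map_of_injective e.injective, hBS]
  · rw [MulEquiv.orderOf_eq, hord]
  · rintro ⟨b, hb, he⟩
    exact htB (e.injective he ▸ hb)
  · rw [← Nat.card_congr e.toEquiv, hcard]
  · have hmap : B.map e.toMonoidHom ⊓ Subgroup.centralizer ({e t} : Set {_i : Fin n // True}) =
        (B ⊓ Subgroup.centralizer ({t} : Set (Y ⧸ L.subgroupOf Y))).map e.toMonoidHom := by
      ext x
      obtain ⟨y, rfl⟩ := e.surjective x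
      constructor
      · rintro ⟨⟨b, hb, he⟩, hc⟩
        refine ⟨y, ⟨e.injective he ▸ hb, ?_⟩, rfl⟩
        have hc' := Subgroup.mem_centralizer_singleton_iff.1 hc
        exact Subgroup.mem_centralizer_singleton_iff.2 (e.injective (by rw [map_mul, map_mul, hc']))
      · rintro ⟨z, ⟨hz, hzc⟩, he⟩
        obtain rfl := e.injective he
        refine ⟨⟨z, hz, rfl⟩, Subgroup.mem_centralizer_singleton_iff.2 ?_⟩
        rw [← map_mul, ← map_mul, Subgroup.mem_centralizer_singleton_iff.1 hzc]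
    rw [hmap, Subgroup.card_map_of_injective e.injective, hcentB]
  · exact CfsgLib.Amalgams.involves_of_surjective (K := Y.subgroupOf T)
      ((e.toMonoidHom.comp mk).comp (Subgroup.subgroupOfEquivOfLe hYT).toMonoidHom)
      ((e.surjective.comp (QuotientGroup.mk'_surjective _)).comp
        (Subgroup.subgroupOfEquivOfLe hYT).surjective)

end CfsgLib.HallHigmanExc
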